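import Mathlib
import Cfsg.Agent.Lib.Helper56.TC
import Cfsg.Agent.Lib.Helper28.G2Mult.L1.D
set_option autoImplicit false
set_option maxRecDepth 1000000

namespace Cfsg.Agent.Lib.Helper28.G2Mult.L1

open Cfsg.Agent.Lib.Helper56.TC Cfsg.Agent.Lib.Helper56.TC.Tabs
open Cfsg.Agent.Lib.Helper28.CovL

theorem cN_0 : allRange (fun x => forceN T.chkName x) 0 647 = true := by decide +kernel
theorem cN_647 : allRange (fun x => forceN T.chkName x) 647 664 = true := by decide +kernel
theorem cN_1311 : allRange (fun x => forceN T.chkName x) 1311 646 = true := by decide +kernel
theorem cN_1957 : allRange (fun x => forceN T.chkName x) 1957 626 = true := by decide +kernel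
theorem cN_2583 : allRange (fun x => forceN T.chkName x) 2583 676 = true := by decide +kernel
theorem cN_3259 : allRange (fun x => forceN T.chkName x) 3259 666 = true := by decide +kernel
theorem cN_3925 : allRange (fun x => forceN T.chkName x) 3925 633 = true := by decide +kernel
theorem cN_4558 : allRange (fun x => forceN T.chkName x) 4558 635 = true := by decide +kernel
theorem cN_5193 : allRange (fun x => forceN T.chkName x) 5193 656 = true := by decide +kernel
theorem cN_5849 : allRange (fun x => forceN T.chkName x) 5849 656 = true := by decide +kernel
theorem cN_6505 : allRange (fun x => forceN T.chkName x) 6505 616 = true := by decide +kernel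
theorem cN_7121 : allRange (fun x => forceN T.chkName x) 7121 608 = true := by decide +kernel

end Cfsg.Agent.Lib.Helper28.G2Mult.L1
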