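import Mathlib
import Cfsg.Agent.Lib.Helper56.TC
import Cfsg.Agent.Lib.Helper28.G2Mult.L1.D
set_option autoImplicit false
set_option maxRecDepth 1000000

namespace Cfsg.Agent.Lib.Helper28.G2Mult.L1

open Cfsg.Agent.Lib.Helper56.TC Cfsg.Agent.Lib.Helper56.TC.Tabs
open Cfsg.Agent.Lib.Helper28.CovL

theorem cN_7729 : allRange (fun x => forceN T.chkName x) 7729 614 = true := by decide +kernel
theorem cN_8343 : allRange (fun x => forceN T.chkName x) 8343 613 = true := by decide +kernel
theorem cN_8956 : allRange (fun x => forceN T.chkName x) 8956 651 = true := by decide +kernel
theorem cN_9607 : allRange (fun x => forceN T.chkName x) 9607 622 = true := by decide +kernel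
theorem cN_10229 : allRange (fun x => forceN T.chkName x) 10229 629 = true := by decide +kernel
theorem cN_10858 : allRange (fun x => forceN T.chkName x) 10858 648 = true := by decide +kernel
theorem cN_11506 : allRange (fun x => forceN T.chkName x) 11506 644 = true := by decide +kernel
theorem cN_12150 : allRange (fun x => forceN T.chkName x) 12150 629 = true := by decide +kernel
theorem cN_12779 : allRange (fun x => forceN T.chkName x) 12779 638 = true := by decide +kernel
theorem cN_13417 : allRange (fun x => forceN T.chkName x) 13417 606 = true := by decide +kernel
theorem cN_14023 : allRange (fun x => forceN T.chkName x) 14023 650 = true := by decide +kernel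
theorem cN_14673 : allRange (fun x => forceN T.chkName x) 14673 608 = true := by decide +kernel

end Cfsg.Agent.Lib.Helper28.G2Mult.L1
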