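import Mathlib
import Cfsg.Agent.Lib.Helper56.TC
import Cfsg.Agent.Lib.Helper28.G2Mult.L1.D
set_option autoImplicit false
set_option maxRecDepth 1000000

namespace Cfsg.Agent.Lib.Helper28.G2Mult.L1

open Cfsg.Agent.Lib.Helper56.TC Cfsg.Agent.Lib.Helper56.TC.Tabs
open Cfsg.Agent.Lib.Helper28.CovL

theorem cN_15281 : allRange (fun x => forceN T.chkName x) 15281 630 = true := by decide +kernel
theorem cN_15911 : allRange (fun x => forceN T.chkName x) 15911 668 = true := by decide +kernel
theorem cN_16579 : allRange (fun x => forceN T.chkName x) 16579 667 = true := by decide +kernel
theorem cN_17246 : allRange (fun x => forceN T.chkName x) 17246 520 = true := by decide +kernel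
theorem cN_17766 : allRange (fun x => forceN T.chkName x) 17766 541 = true := by decide +kernel
theorem cN_18307 : allRange (fun x => forceN T.chkName x) 18307 519 = true := by decide +kernel
theorem cN_18826 : allRange (fun x => forceN T.chkName x) 18826 522 = true := by decide +kernel
theorem cN_19348 : allRange (fun x => forceN T.chkName x) 19348 552 = true := by decide +kernel
theorem cN_19900 : allRange (fun x => forceN T.chkName x) 19900 549 = true := by decide +kernel
theorem cN_20449 : allRange (fun x => forceN T.chkName x) 20449 557 = true := by decide +kernel
theorem cN_21006 : allRange (fun x => forceN T.chkName x) 21006 529 = true := by decide +kernel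
theorem cN_21535 : allRange (fun x => forceN T.chkName x) 21535 580 = true := by decide +kernel

end Cfsg.Agent.Lib.Helper28.G2Mult.L1
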