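import Mathlib
import Cfsg.Agent.Lib.Helper56.TC
import Cfsg.Agent.Lib.Helper28.G2Mult.L1.D
set_option autoImplicit false
set_option maxRecDepth 1000000

namespace Cfsg.Agent.Lib.Helper28.G2Mult.L1

open Cfsg.Agent.Lib.Helper56.TC Cfsg.Agent.Lib.Helper56.TC.Tabs
open Cfsg.Agent.Lib.Helper28.CovL

theorem cN_22115 : allRange (fun x => forceN T.chkName x) 22115 607 = true := by decide +kernel
theorem cN_22722 : allRange (fun x => forceN T.chkName x) 22722 619 = true := by decide +kernel
theorem cN_23341 : allRange (fun x => forceN T.chkName x) 23341 598 = true := by decide +kernel
theorem cN_23939 : allRange (fun x => forceN T.chkName x) 23939 590 = true := by decide +kernel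
theorem cN_24529 : allRange (fun x => forceN T.chkName x) 24529 592 = true := by decide +kernel
theorem cN_25121 : allRange (fun x => forceN T.chkName x) 25121 596 = true := by decide +kernel
theorem cN_25717 : allRange (fun x => forceN T.chkName x) 25717 620 = true := by decide +kernel
theorem cN_26337 : allRange (fun x => forceN T.chkName x) 26337 609 = true := by decide +kernel
theorem cN_26946 : allRange (fun x => forceN T.chkName x) 26946 634 = true := by decide +kernel
theorem cN_27580 : allRange (fun x => forceN T.chkName x) 27580 609 = true := by decide +kernel
theorem cN_28189 : allRange (fun x => forceN T.chkName x) 28189 629 = true := by decide +kernel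
theorem cN_28818 : allRange (fun x => forceN T.chkName x) 28818 630 = true := by decide +kernel

end Cfsg.Agent.Lib.Helper28.G2Mult.L1
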