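import Mathlib
import Cfsg.Agent.Lib.Helper56.TC
import Cfsg.Agent.Lib.Helper28.G2Mult.L1.D
set_option autoImplicit false
set_option maxRecDepth 1000000

namespace Cfsg.Agent.Lib.Helper28.G2Mult.L1

open Cfsg.Agent.Lib.Helper56.TC Cfsg.Agent.Lib.Helper56.TC.Tabs
open Cfsg.Agent.Lib.Helper28.CovL

theorem cN_29448 : allRange (fun x => forceN T.chkName x) 29448 611 = true := by decide +kernel
theorem cN_30059 : allRange (fun x => forceN T.chkName x) 30059 595 = true := by decide +kernel
theorem cN_30654 : allRange (fun x => forceN T.chkName x) 30654 545 = true := by decide +kernel
theorem cN_31199 : allRange (fun x => forceN T.chkName x) 31199 534 = true := by decide +kernel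
theorem cN_31733 : allRange (fun x => forceN T.chkName x) 31733 545 = true := by decide +kernel
theorem cN_32278 : allRange (fun x => forceN T.chkName x) 32278 588 = true := by decide +kernel
theorem cN_32866 : allRange (fun x => forceN T.chkName x) 32866 580 = true := by decide +kernel
theorem cN_33446 : allRange (fun x => forceN T.chkName x) 33446 541 = true := by decide +kernel
theorem cN_33987 : allRange (fun x => forceN T.chkName x) 33987 605 = true := by decide +kernel
theorem cN_34592 : allRange (fun x => forceN T.chkName x) 34592 649 = true := by decide +kernel
theorem cN_35241 : allRange (fun x => forceN T.chkName x) 35241 586 = true := by decide +kernel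
theorem cN_35827 : allRange (fun x => forceN T.chkName x) 35827 558 = true := by decide +kernel

end Cfsg.Agent.Lib.Helper28.G2Mult.L1
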