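import Mathlib
import Cfsg.Agent.Lib.Helper56.TC
import Cfsg.Agent.Lib.Helper28.G2Mult.L1.D
set_option autoImplicit false
set_option maxRecDepth 1000000

namespace Cfsg.Agent.Lib.Helper28.G2Mult.L1

open Cfsg.Agent.Lib.Helper56.TC Cfsg.Agent.Lib.Helper56.TC.Tabs
open Cfsg.Agent.Lib.Helper28.CovL

theorem cN_36385 : allRange (fun x => forceN T.chkName x) 36385 543 = true := by decide +kernel
theorem cN_36928 : allRange (fun x => forceN T.chkName x) 36928 583 = true := by decide +kernel
theorem cN_37511 : allRange (fun x => forceN T.chkName x) 37511 608 = true := by decide +kernel
theorem cN_38119 : allRange (fun x => forceN T.chkName x) 38119 601 = true := by decide +kernel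
theorem cN_38720 : allRange (fun x => forceN T.chkName x) 38720 555 = true := by decide +kernel
theorem cN_39275 : allRange (fun x => forceN T.chkName x) 39275 543 = true := by decide +kernel
theorem cN_39818 : allRange (fun x => forceN T.chkName x) 39818 538 = true := by decide +kernel
theorem cN_40356 : allRange (fun x => forceN T.chkName x) 40356 510 = true := by decide +kernel
theorem cN_40866 : allRange (fun x => forceN T.chkName x) 40866 589 = true := by decide +kernel
theorem cN_41455 : allRange (fun x => forceN T.chkName x) 41455 549 = true := by decide +kernel
theorem cN_42004 : allRange (fun x => forceN T.chkName x) 42004 536 = true := by decide +kernel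
theorem cN_42540 : allRange (fun x => forceN T.chkName x) 42540 568 = true := by decide +kernel

end Cfsg.Agent.Lib.Helper28.G2Mult.L1
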