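import Mathlib
import Cfsg.Agent.Lib.Helper56.TC
import Cfsg.Agent.Lib.Helper28.G2Mult.L1.D
set_option autoImplicit false
set_option maxRecDepth 1000000

namespace Cfsg.Agent.Lib.Helper28.G2Mult.L1

open Cfsg.Agent.Lib.Helper56.TC Cfsg.Agent.Lib.Helper56.TC.Tabs
open Cfsg.Agent.Lib.Helper28.CovL

theorem cN_43108 : allRange (fun x => forceN T.chkName x) 43108 541 = true := by decide +kernel
theorem cN_43649 : allRange (fun x => forceN T.chkName x) 43649 567 = true := by decide +kernel
theorem cN_44216 : allRange (fun x => forceN T.chkName x) 44216 602 = true := by decide +kernel
theorem cN_44818 : allRange (fun x => forceN T.chkName x) 44818 569 = true := by decide +kernel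
theorem cN_45387 : allRange (fun x => forceN T.chkName x) 45387 579 = true := by decide +kernel
theorem cN_45966 : allRange (fun x => forceN T.chkName x) 45966 566 = true := by decide +kernel
theorem cN_46532 : allRange (fun x => forceN T.chkName x) 46532 592 = true := by decide +kernel
theorem cN_47124 : allRange (fun x => forceN T.chkName x) 47124 589 = true := by decide +kernel
theorem cN_47713 : allRange (fun x => forceN T.chkName x) 47713 573 = true := by decide +kernel
theorem cN_48286 : allRange (fun x => forceN T.chkName x) 48286 574 = true := by decide +kernel
theorem cN_48860 : allRange (fun x => forceN T.chkName x) 48860 612 = true := by decide +kernel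
theorem cN_49472 : allRange (fun x => forceN T.chkName x) 49472 602 = true := by decide +kernel

end Cfsg.Agent.Lib.Helper28.G2Mult.L1
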