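import Mathlib
import Cfsg.Agent.Lib.Helper56.TC
import Cfsg.Agent.Lib.Helper28.G2Mult.L1.D
set_option autoImplicit false
set_option maxRecDepth 1000000

namespace Cfsg.Agent.Lib.Helper28.G2Mult.L1

open Cfsg.Agent.Lib.Helper56.TC Cfsg.Agent.Lib.Helper56.TC.Tabs
open Cfsg.Agent.Lib.Helper28.CovL

theorem cN_50074 : allRange (fun x => forceN T.chkName x) 50074 608 = true := by decide +kernel
theorem cN_50682 : allRange (fun x => forceN T.chkName x) 50682 604 = true := by decide +kernel
theorem cN_51286 : allRange (fun x => forceN T.chkName x) 51286 631 = true := by decide +kernel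
theorem cN_51917 : allRange (fun x => forceN T.chkName x) 51917 602 = true := by decide +kernel
theorem cF_0 : allRange (fun x => forceN T.chkFinName x) 0 200 = true := by decide +kernel

end Cfsg.Agent.Lib.Helper28.G2Mult.L1
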